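/-
Lifting Steinberg's relations over a finite field of characteristic `p` to central extensions with kernel prime to
`p`; projective representations in the defining characteristic.
-/
import Cfsg.Agent.Lib.Chev.Mult
import Cfsg.Agent.Lib.Chev.RGD2
import Cfsg.Agent.Lib.CExt.PLift

set_option autoImplicit false

namespace Cfsg.Agent.Chev

open Cfsg.Lie RSys

variable {D : ChevalleyDatum} {K : Type*} [Field K] {G E : Type*} [Group G] [Group E] [Tab D]
  {x : ℕ → K → G} {π : E →* G}

theorem Chv.card_XS (hx : Chv D x) (r : Fin D.nroots) : Nat.card (XS D x r) = Nat.card K :=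
  (Nat.card_congr (Equiv.ofBijective (fun t : K => (⟨x r t, x_mem_XS r t⟩ : XS D x r))
    ⟨fun _ _ h => hx.x_injective r (congrArg Subtype.val h), fun ⟨_, hg⟩ =>
      let ⟨t, ht⟩ := hx.rel.mem_XS_iff.mp hg; ⟨t, Subtype.ext ht.symm⟩⟩)).symm

theorem Chv.isPGroup_USub [Finite K] (hx : Chv D x) (p : ℕ) [Fact p.Prime] [CharP K p] {S : Set (Fin D.nroots)}
    (hS : (rs D).HalfSpace S) (hc : (rs D).Closed S) : IsPGroup p (USub (XS D x) S) := by
  have := Fintype.ofFinite K
  obtain ⟨n, -, hn⟩ := FiniteField.card K p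
  have h := hx.nondeg.card_US_of_const (q := Nat.card K) hx.card_XS hS hc
  rw [Nat.card_eq_fintype_card (α := K), hn, ← pow_mul] at h
  exact IsPGroup.of_card h

theorem Chv.exists_lift_pExt [Finite K] (hx : Chv D x) {p : ℕ} [Fact p.Prime] [CharP K p] (hπ : PExt p π) :
    ∃ y : ℕ → K → E, StRel D y ∧ ∀ (r : Fin D.nroots) (t : K), π (y r t) = x r t := by
  have key : ∀ r s : Fin D.nroots, s ≠ (rs D).neg r → Finite (USub (XS D x) ((rs D).cone r s)) ∧
      IsPGroup p (USub (XS D x) ((rs D).cone r s)) := fun r s h =>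
    ⟨hx.rel.finite_USub (halfSpace_cone h) (closed_cone r s), hx.isPGroup_USub p (halfSpace_cone h) (closed_cone r s)⟩
  have h1 : ∀ (r : Fin D.nroots) (t : K), π (hπ.lift (x r t)) = x r t := fun r t =>
    hπ.map_lift (IsPElt.of_mem (key r r ((rs D).neg_ne_self r).symm).2 (x_mem_USub (left_mem_cone r r) t))
  refine ⟨fun r t => hπ.lift (x r t), ⟨fun r t u hr => ?_, fun r s t u hr hs h2 h3 => ?_⟩, h1⟩
  · obtain ⟨_, hP⟩ := key ⟨r, hr⟩ ⟨r, hr⟩ ((rs D).neg_ne_self _).symm
    rw [← hx.rel.add r t u hr, hπ.lift_mul hP (x_mem_USub (left_mem_cone _ _) t) (x_mem_USub (left_mem_cone _ _) u)]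
  · lift r to Fin D.nroots using hr
    lift s to Fin D.nroots using hs
    obtain ⟨_, hP⟩ := key r s fun h => h3 (congrArg Fin.val h)
    have h4 : USub (XS D fun r t => hπ.lift (x r t)) ((rs D).cone r s) ≤ hπ.up _ hP :=
      USub_XS_le_iff.mpr fun k hk t => hπ.lift_mem_up hP (x_mem_USub hk t)
    have hr := h4 (x_mem_USub (left_mem_cone r s) t)
    have hs := h4 (x_mem_USub (right_mem_cone r s) u)
    refine hπ.eq_of_isPElt (mul_mem (mul_mem (mul_mem (inv_mem hs) (inv_mem hr)) hs) hr).2
      (h4 (USub_mono (intv_subset_cone r s) (commWord_mem_USub _ r s t u))).2 ?_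
    rw [map_wordVal]
    simp only [map_mul, map_inv, h1, hx.rel.comm r s t u r.2 s.2 h2 h3, wordVal]
    congr 1
    exact List.map_congr_left fun q hq => (h1 ⟨q.1, commWord_lt r.2 s.2 t u q hq⟩ q.2).symm

theorem cExt_commutator (hπ : CExt π) (hG : commutator G = ⊤) : CExt (π.comp (commutator E).subtype) where
  surj g := by
    have h1 : g ∈ (commutator E).map π := by
      rw [commutator, Subgroup.map_commutator, ← MonoidHom.range_eq_map, MonoidHom.range_eq_top.mpr hπ.surj]
      change g ∈ commutator G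
      rw [hG]; exact Subgroup.mem_top _
    obtain ⟨c, hc, h2⟩ := h1
    exact ⟨⟨c, hc⟩, h2⟩
  cent z hz := Subgroup.mem_center_iff.mpr fun g => Subtype.ext (hπ.comm_of_ker hz _)

theorem existsUnique_lift_projective (hK : D ∈ [chevB2, chevG2] → ∃ l : K, l ≠ 0 ∧ l ≠ 1) {L : Type*} [Field L]
    (hL : ringChar L = ringChar K) {n : ℕ} (σ : D.SteinbergCover K →* GL (Fin n) L ⧸ Subgroup.center (GL (Fin n) L)) :
    ∃! ψ : D.SteinbergCover K →* GL (Fin n) L, (QuotientGroup.mk' (Subgroup.center (GL (Fin n) L))).comp ψ = σ := by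
  have hπ : CExt (QuotientGroup.mk' (Subgroup.center (GL (Fin n) L))) :=
    ⟨QuotientGroup.mk'_surjective _, (QuotientGroup.ker_mk' _).le⟩
  by_cases h : Big K
  · exact existsUnique_lift_cover (Or.inl h) hπ σ
  have := finite_of_not_big h
  have hP := (stRel_cover D K).commutator_eq_top Tab.isTab hK (GS_scGen D K)
  have hp : (ringChar K).Prime := CharP.char_is_prime K _
  have := Fact.mk hp
  have : ExpChar L (ringChar K) := by
    have : CharP L (ringChar K) := hL ▸ ringChar.charP L
    exact ExpChar.prime hp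
  have h1 : PExt (ringChar K) (((MonoidHom.fst _ _).comp (pullback (QuotientGroup.mk' _) σ).subtype).comp
      (commutator _).subtype) := ⟨cExt_commutator (cExt_pullback hπ σ) hP, fun z hz => by
    have h2 : z.1.1.1 = 1 := hz
    have h3 : z.1.1.2 ∈ Subgroup.center (GL (Fin n) L) := by
      rw [← QuotientGroup.eq_one_iff]
      have := z.1.2
      change σ z.1.1.1 = _ at this
      rw [h2, map_one] at this
      exact this.symm
    have h4 : Matrix.GeneralLinearGroup.det z.1.1.2 = 1 := by
      have := Abelianization.commutator_subset_ker (Matrix.GeneralLinearGroup.det.comp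
        ((MonoidHom.snd _ _).comp (pullback (QuotientGroup.mk' _) σ).subtype)) z.2
      exact this
    obtain ⟨c, hc⟩ := Matrix.GeneralLinearGroup.center_eq_range_scalar.le h3
    rcases Nat.eq_zero_or_pos n with rfl | hn
    · exact ⟨1, by simp, by
        rw [pow_one]; exact Subtype.ext (Subtype.ext (Prod.ext h2 (Subsingleton.elim _ _)))⟩
    obtain ⟨k, m, hm, rfl⟩ := Nat.exists_eq_pow_mul_and_not_dvd hn.ne' _ hp.ne_one
    have h5 : (c : L) ^ m = 1 := by
      rw [← hc] at h4
      have := congrArg Units.val h4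
      simp only [Matrix.GeneralLinearGroup.val_det_apply, Matrix.GeneralLinearGroup.coe_scalar, Matrix.scalar_apply,
        Matrix.det_diagonal, Finset.prod_const, Finset.card_univ, Fintype.card_fin, Units.val_one] at this
      exact (ExpChar.pow_prime_pow_mul_eq_one_iff _ k m _).mp this
    refine ⟨m, ((Nat.Prime.coprime_iff_not_dvd hp).mpr hm).symm, Subtype.ext (Subtype.ext (Prod.ext ?_ ?_))⟩
    · simp [h2]
    · have : c ^ m = 1 := Units.ext (by simpa using h5)
      simp [← hc, ← map_pow, this]⟩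
  obtain ⟨y, hy, h2⟩ := (chv_cover D K).exists_lift_pExt h1
  obtain ⟨τ, hτ⟩ := exists_lift_cover_of (π := QuotientGroup.mk' _) (σ := σ) ⟨fun r t => (y r t).1, hy.map (commutator _).subtype, h2⟩
  exact ⟨τ, hτ, fun τ' hτ' => hπ.hom_unique hP (hτ'.trans hτ.symm)⟩

end Cfsg.Agent.Chev
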